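import Mathlib
import Cfsg.Prelude.Def_Transfer
import Cfsg.Prelude.Def_PLocal
import Cfsg.Agent.Lib.Helper11.QuadStable
import Cfsg.Agent.Lib.Helper11.ThompsonOf

/-!
# Project BPP (S3753, Bender: primitive pairs of characteristic `p`): interface

All statements are INTERNAL: subgroups of one ambient finite group `G`.
`TwoAb M` (all 2-subgroups of `M` commutative), `quad_stable_sub` (internal p-stability),
`maxElemAbIn p B` (largest elementary abelian subgroups of `B`) come from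
`Cfsg.Agent.Lib.Helper11.{QuadStable,ThompsonOf}`.
-/

set_option autoImplicit false
open scoped commutatorElement

namespace Cfsg.Agent.Lib.Helper11.BPP

open Cfsg.Agent.Lib.Helper11

universe u

/-- `Q = O_p(M)` and `M` has characteristic `p`, stated inside the ambient group:
`Q` is a normal `p`-subgroup of `M`, every `p`-subgroup `X` that is normal in a normal subgroup
`N` of `M` lies in `Q`, and `C_M(Q) ≤ Q`. -/
def CharP {G : Type u} [Group G] (p : ℕ) (M Q : Subgroup G) : Prop :=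
  Q ≤ M ∧ M ≤ Subgroup.normalizer (Q : Set G) ∧ IsPGroup p Q ∧
  (∀ N X : Subgroup G, N ≤ M → M ≤ Subgroup.normalizer (N : Set G) → X ≤ N → IsPGroup p X →
      N ≤ Subgroup.normalizer (X : Set G) → X ≤ Q) ∧
  M ⊓ Subgroup.centralizer (Q : Set G) ≤ Q

/-- `U` is rigid for `M`: every element of `M` acting quadratically on `U` centralizes `U`. -/
def Rigid {G : Type u} [Group G] (M U : Subgroup G) : Prop :=
  ∀ a ∈ M, ⁅⁅U, Subgroup.zpowers a⁆, Subgroup.zpowers a⁆ = ⊥ →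
    a ∈ Subgroup.centralizer (U : Set G)

/-- [CHARP] the image of `O_p(M)` in `G` satisfies `CharP` when `C_M(O_p(M)) ≤ O_p(M)`. -/
def PkgCharP : Prop :=
  ∀ {G : Type u} [Group G] [Finite G] (p : ℕ) [Fact p.Prime] (M : Subgroup G),
    Subgroup.centralizer (Cfsg.pCore p ↥M : Set ↥M) ≤ Cfsg.pCore p ↥M →
    CharP p M ((Cfsg.pCore p ↥M).map M.subtype)

/-- [F1] `p` odd, `M` with abelian 2-subgroups and of characteristic `p`: an element of `M`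
acting quadratically on `O_p(M)` lies in `O_p(M)`. -/
def PkgF1 : Prop :=
  ∀ {G : Type u} [Group G] [Finite G] (p : ℕ) [Fact p.Prime], p ≠ 2 → ∀ (M : Subgroup G),
    TwoAb M → Subgroup.centralizer (Cfsg.pCore p ↥M : Set ↥M) ≤ Cfsg.pCore p ↥M →
    ∀ a ∈ M, ⁅⁅(Cfsg.pCore p ↥M).map M.subtype, Subgroup.zpowers a⁆, Subgroup.zpowers a⁆ = ⊥ →
      a ∈ (Cfsg.pCore p ↥M).map M.subtype

/-- [RIG] a minimal normal subgroup `U` of `M` inside `Q = O_p(M) ≠ 1` is elementary abelian and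
rigid (`p` odd, abelian 2-subgroups). -/
def PkgRig : Prop :=
  ∀ {G : Type u} [Group G] [Finite G] (p : ℕ) [Fact p.Prime], p ≠ 2 → ∀ (M Q : Subgroup G),
    TwoAb M → CharP p M Q → Q ≠ ⊥ →
    ∃ U : Subgroup G, U ≠ ⊥ ∧ U ≤ Q ∧ M ≤ Subgroup.normalizer (U : Set G) ∧
      Cfsg.IsElementaryAbelian p U ∧ Rigid M U

/-- [K] Lemma K: `N ≤ L` normal in `M`, `L/N` a `p`-group, `B` a `p`-subgroup of `M` containing
`Q = O_p(M)` with `[B, N] ≤ Q`. Then `B ∩ L ≤ Q`. -/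
def PkgK : Prop :=
  ∀ {G : Type u} [Group G] [Finite G] (p : ℕ) [Fact p.Prime] (M Q N L B : Subgroup G),
    CharP p M Q → N ≤ M → M ≤ Subgroup.normalizer (N : Set G) →
    L ≤ M → (∀ h ∈ M, ∀ d ∈ L, h * d * h⁻¹ ∈ L) → N ≤ L →
    (∀ d ∈ L, ∃ k : ℕ, d ^ p ^ k ∈ N) →
    B ≤ M → IsPGroup p B → Q ≤ B → ⁅B, N⁆ ≤ Q → B ⊓ L ≤ Q

/-- [REPL] Timmesfeld replacement (S0607) inside a subgroup `B` of `G`. -/
def PkgRepl : Prop :=
  ∀ {G : Type u} [Group G] [Finite G] (p : ℕ) [Fact p.Prime] (B V A : Subgroup G),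
    V ≤ B → B ≤ Subgroup.normalizer (V : Set G) → Cfsg.IsElementaryAbelian p V →
    A ∈ maxElemAbIn p B → ⁅V, A⁆ ≠ ⊥ →
    ∃ A₀ ∈ maxElemAbIn p B, ⁅⁅V, A₀⁆, A₀⁆ = ⊥ ∧ ⁅V, A₀⁆ ≠ ⊥

/-- [VAB] the normal closure `V = ⟨U^{M₁}⟩` of a rigid normal subgroup `U` of `M₂` with
`U ≤ Q₁ ≤ M₂`: elementary abelian, normal in `M₁`, inside `Q₁`, and rigid for elements of `Q₁`. -/
def PkgVab : Prop :=
  ∀ {G : Type u} [Group G] [Finite G] (p : ℕ) [Fact p.Prime] (M₁ M₂ Q₁ U : Subgroup G),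
    Q₁ ≤ M₁ → M₁ ≤ Subgroup.normalizer (Q₁ : Set G) → Q₁ ≤ M₂ → U ≤ Q₁ →
    M₂ ≤ Subgroup.normalizer (U : Set G) → Cfsg.IsElementaryAbelian p U → Rigid M₂ U →
    ∃ V : Subgroup G, U ≤ V ∧ V ≤ Q₁ ∧ M₁ ≤ Subgroup.normalizer (V : Set G) ∧
      Cfsg.IsElementaryAbelian p V ∧
      ∀ a ∈ Q₁, ⁅⁅V, Subgroup.zpowers a⁆, Subgroup.zpowers a⁆ = ⊥ →
        a ∈ Subgroup.centralizer (V : Set G)

/-- [JQ] the heart: every largest elementary abelian subgroup of `B` lies in `Q₁`. -/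
def PkgJQ : Prop :=
  ∀ {G : Type u} [Group G] [Finite G] (p : ℕ) [Fact p.Prime], p ≠ 2 →
    ∀ (M₁ D Q₁ B V : Subgroup G), CharP p M₁ Q₁ → TwoAb M₁ → D ≤ M₁ → Q₁ ≤ B → B ≤ D →
    IsPGroup p B → D ≤ Subgroup.normalizer (B : Set G) →
    V ≤ Q₁ → M₁ ≤ Subgroup.normalizer (V : Set G) → Cfsg.IsElementaryAbelian p V →
    M₁ ⊓ Subgroup.centralizer (V : Set G) ≤ D →
    (∀ a ∈ Q₁, ⁅⁅V, Subgroup.zpowers a⁆, Subgroup.zpowers a⁆ = ⊥ →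
        a ∈ Subgroup.centralizer (V : Set G)) →
    ∀ A ∈ maxElemAbIn p B, A ≤ Q₁

/-- [FIN] the end game: `J(Q₁Q₂) = J(Q₁) = J(Q₂)` is normal in both, so `M₁ = M₂`. -/
def PkgFin : Prop :=
  ∀ {G : Type u} [Group G] [Finite G] (p : ℕ) [Fact p.Prime] (M₁ M₂ Q₁ Q₂ : Subgroup G),
    CharP p M₁ Q₁ → CharP p M₂ Q₂ → Q₁ ≤ M₂ → Q₂ ≤ M₁ →
    (∀ A : Subgroup G, A ≠ ⊥ → A ≤ M₁ ⊓ M₂ →
      (M₁ ≤ Subgroup.normalizer (A : Set G) → M₂ ⊓ Subgroup.normalizer (A : Set G) = M₁ ⊓ M₂) ∧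
      (M₂ ≤ Subgroup.normalizer (A : Set G) → M₁ ⊓ Subgroup.normalizer (A : Set G) = M₁ ⊓ M₂)) →
    (∀ A ∈ maxElemAbIn p (Q₁ ⊔ Q₂), A ≤ Q₁) → (∀ A ∈ maxElemAbIn p (Q₁ ⊔ Q₂), A ≤ Q₂) →
    M₁ = M₂

/-- [P2] the case `p = 2` of S3753. -/
def PkgP2 : Prop :=
  ∀ {G : Type u} [Group G] [Finite G] [Fact (Nat.Prime 2)] (M₁ M₂ : Subgroup G), M₁ ≠ M₂ →
    (∀ A : Subgroup G, A ≠ ⊥ → A ≤ M₁ ⊓ M₂ →
      (M₁ ≤ Subgroup.normalizer (A : Set G) → M₂ ⊓ Subgroup.normalizer (A : Set G) = M₁ ⊓ M₂) ∧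
      (M₂ ≤ Subgroup.normalizer (A : Set G) → M₁ ⊓ Subgroup.normalizer (A : Set G) = M₁ ⊓ M₂)) →
    Subgroup.centralizer (Cfsg.pCore 2 ↥M₁ : Set ↥M₁) ≤ Cfsg.pCore 2 ↥M₁ →
    Subgroup.centralizer (Cfsg.pCore 2 ↥M₂ : Set ↥M₂) ≤ Cfsg.pCore 2 ↥M₂ →
    (Cfsg.pCore 2 ↥M₁).map M₁.subtype ⊔ (Cfsg.pCore 2 ↥M₂).map M₂.subtype ≤ M₁ ⊓ M₂ →
    (∃ S : Sylow 2 ↥M₁, ¬ IsMulCommutative (S : Subgroup ↥M₁)) ∨
      (∃ S : Sylow 2 ↥M₂, ¬ IsMulCommutative (S : Subgroup ↥M₂))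

end Cfsg.Agent.Lib.Helper11.BPP
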